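import Mathlib
import Cfsg.Agent.Lib.Char.Ortho

/-!
The centre of the commutant of a unitary matrix representation has dimension the number of
distinct irreducible constituents.
-/

set_option autoImplicit false

namespace H64.Hk

open Matrix Cfsg
open scoped ComplexConjugate

section dens

variable {G V : Type*} [Group G] [Fintype G] [AddCommGroup V] [Module ℂ V] [FiniteDimensional ℂ V]

theorem density (σ : Representation ℂ G V) (z : V →ₗ[ℂ] V)
    (hz : ∀ m : V →ₗ[ℂ] V, (∀ g, σ g * m = m * σ g) → m * z = z * m) :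
    ∃ f : G → ℂ, z = ∑ g, f g • σ g := by
  have : NeZero (Nat.card G : ℂ) := ⟨H6.card_ne_zero⟩
  let e := σ.asModuleEquiv
  let F : Module.End (Module.End (MonoidAlgebra ℂ G) σ.asModule) σ.asModule :=
    { toFun := fun v => e.symm (z (e v))
      map_add' := fun a b => by simp
      map_smul' := fun φ v => by
        have := hz (e.toLinearMap ∘ₗ φ.restrictScalars ℂ ∘ₗ e.symm.toLinearMap) (fun g => by
          refine LinearMap.ext fun x => ?_
          simp only [Module.End.mul_apply, LinearMap.comp_apply, LinearEquiv.coe_coe,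
            LinearMap.restrictScalars_apply]
          rw [Representation.asModuleEquiv_symm_map_rho, map_smul,
            Representation.asModuleEquiv_map_smul, Representation.asAlgebraHom_of])
        have h1 := LinearMap.congr_fun this (e v)
        simp only [Module.End.mul_apply, LinearMap.comp_apply, LinearEquiv.coe_coe,
            LinearMap.restrictScalars_apply, LinearEquiv.symm_apply_apply] at h1
        rw [RingHom.id_apply, Module.End.smul_def, Module.End.smul_def, ← h1,
          LinearEquiv.symm_apply_apply] }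
  haveI : Module.Finite (Module.End (MonoidAlgebra ℂ G) σ.asModule) σ.asModule :=
    Module.Finite.of_restrictScalars_finite ℂ _ _
  obtain ⟨y, hy⟩ := Module.Finite.toModuleEnd_moduleEnd_surjective F
  refine ⟨fun g => y.coeff g, LinearMap.ext fun v => ?_⟩
  have h1 : y • e.symm v = e.symm (z (e (e.symm v))) := LinearMap.congr_fun hy (e.symm v)
  have h2 := congrArg e h1
  rw [Representation.asModuleEquiv_map_smul, LinearEquiv.apply_symm_apply,
    LinearEquiv.apply_symm_apply] at h2
  rw [← h2, Representation.asAlgebraHom_def, MonoidAlgebra.lift_apply, Finsupp.sum_fintype]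
  simp

end dens

variable {G X : Type*} [Group G] [Fintype G] [Fintype X] [DecidableEq X] (ρ : G →* Matrix X X ℂ)

/-- The centre of the commutant. -/
def Zc : Submodule ℂ (Matrix X X ℂ) where
  carrier := {z | (∀ g, ρ g * z = z * ρ g) ∧ ∀ m, (∀ g, ρ g * m = m * ρ g) → m * z = z * m}
  add_mem' := fun ha hb => ⟨fun g => by rw [mul_add, add_mul, ha.1, hb.1],
    fun m hm => by rw [mul_add, add_mul, ha.2 m hm, hb.2 m hm]⟩
  zero_mem' := ⟨fun g => by simp, fun m _ => by simp⟩
  smul_mem' := fun c a ha => ⟨fun g => by rw [mul_smul_comm, smul_mul_assoc, ha.1],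
    fun m hm => by rw [mul_smul_comm, smul_mul_assoc, ha.2 m hm]⟩

omit [Fintype G] in
theorem mem_Zc {z : Matrix X X ℂ} : z ∈ Zc ρ ↔
    (∀ g, ρ g * z = z * ρ g) ∧ ∀ m, (∀ g, ρ g * m = m * ρ g) → m * z = z * m := Iff.rfl

/-- The image of a function on the group. -/
noncomputable abbrev av : (G → ℂ) →ₗ[ℂ] Matrix X X ℂ := Fintype.linearCombination ℂ ρ

theorem av_apply (f : G → ℂ) : av ρ f = ∑ g, f g • ρ g := Fintype.linearCombination_apply _ _ _

/-- The representation on column vectors. -/
noncomputable def rep : Representation ℂ G (X → ℂ) :=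
  (Matrix.toLinAlgEquiv' (R := ℂ) (n := X)).toAlgHom.toMonoidHom.comp ρ

omit [Fintype G] in
theorem rep_apply (g : G) : rep ρ g = Matrix.toLinAlgEquiv' (ρ g) := rfl

omit [Fintype G] in
theorem isCharacter_trace : IsCharacter G fun g => (ρ g).trace := by
  have := H6.isCharacter_character (rep ρ)
  convert this using 1
  funext g
  rw [Representation.character, rep_apply]
  exact (Matrix.trace_toLin'_eq _).symm

theorem exists_av {z : Matrix X X ℂ} (hz : ∀ m, (∀ g, ρ g * m = m * ρ g) → m * z = z * m) :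
    ∃ f, z = av ρ f := by
  let e := Matrix.toLinAlgEquiv' (R := ℂ) (n := X)
  obtain ⟨f, hf⟩ := density (rep ρ) (e z) fun m hm => by
    obtain ⟨m, rfl⟩ := e.surjective m
    rw [← map_mul, ← map_mul, hz m fun g => e.injective (by
      rw [map_mul, map_mul]; exact hm g)]
  refine ⟨f, e.injective ?_⟩
  rw [hf, av_apply, map_sum]
  simp only [map_smul]
  rfl

theorem av_conj (f : G → ℂ) (h : G) : ρ h * av ρ f * ρ h⁻¹ = av ρ fun g => f (h⁻¹ * g * h) := by
  rw [av_apply, av_apply, Finset.mul_sum, Finset.sum_mul]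
  refine Fintype.sum_equiv (MulAut.conj h).toEquiv _ _ fun g => ?_
  simp only [MulEquiv.toEquiv_eq_coe, EquivLike.coe_coe, MulAut.conj_apply, smul_mul_assoc,
    mul_smul_comm, ← map_mul]
  congr 2
  group

theorem av_mem {f : G → ℂ} (hf : IsClassFunction G f) : av ρ f ∈ Zc ρ := by
  refine ⟨fun g => ?_, fun m hm => ?_⟩
  · have h1 := av_conj ρ f g
    have h2 : (fun x => f (g⁻¹ * x * g)) = f := funext fun x => by
      simpa using hf x g⁻¹
    rw [h2] at h1
    conv_rhs => rw [← h1]
    rw [mul_assoc, ← map_mul, inv_mul_cancel, map_one, mul_one]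
  · rw [av_apply, Finset.mul_sum, Finset.sum_mul]
    simp only [mul_smul_comm, smul_mul_assoc, hm]

theorem exists_class {z : Matrix X X ℂ} (hz : z ∈ Zc ρ) :
    ∃ f, IsClassFunction G f ∧ z = av ρ f := by
  obtain ⟨f, rfl⟩ := exists_av ρ hz.2
  refine ⟨(Nat.card G : ℂ)⁻¹ • ∑ h : G, fun g => f (h⁻¹ * g * h), ?_, ?_⟩
  · refine H6.isClassFunction_smul _ fun g k => ?_
    simp only [Finset.sum_apply]
    refine Fintype.sum_equiv (Equiv.mulLeft k⁻¹) _ _ fun h => ?_
    simp only [Equiv.coe_mulLeft]
    congr 1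
    group
  · rw [map_smul, map_sum]
    simp only [← av_conj, hz.1]
    simp only [mul_assoc, ← map_mul, mul_inv_cancel, map_one, mul_one,
      Finset.sum_const, Finset.card_univ]
    rw [← Nat.cast_smul_eq_nsmul ℂ, smul_smul, ← Nat.card_eq_fintype_card,
      inv_mul_cancel₀ H6.card_ne_zero, one_smul]

/-- The (unnormalised) central idempotents. -/
noncomputable def ee (χ : IrrCharacter G) : Matrix X X ℂ := av ρ fun g => conj ((χ : G → ℂ) g)

theorem trace_ee (χ ψ : IrrCharacter G) : (ee ρ χ * ee ρ ψ).trace =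
    classInner (fun g => (ρ g).trace) χ * (Nat.card G : ℂ) ^ 2 / (χ : G → ℂ) 1 *
      classInner (χ : G → ℂ) ψ := by
  classical
  have hπ := H6.classFun_apply_eq_sum_irr (H6.char_isClassFunction (isCharacter_trace ρ))
  have h1 : (ee ρ χ * ee ρ ψ).trace =
      ∑ h, conj ((ψ : G → ℂ) h) * ∑ g, conj ((χ : G → ℂ) g) * (ρ (g * h)).trace := by
    rw [ee, ee, av_apply, av_apply, Finset.mul_sum, Matrix.trace_sum]
    refine Finset.sum_congr rfl fun h _ => ?_
    rw [mul_smul_comm, Matrix.trace_smul, Finset.sum_mul, Matrix.trace_sum]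
    simp only [smul_mul_assoc, Matrix.trace_smul, smul_eq_mul, map_mul]
  have h2 : ∀ h, ∑ g, conj ((χ : G → ℂ) g) * (ρ (g * h)).trace =
      classInner (fun g => (ρ g).trace) χ * (Nat.card G : ℂ) / (χ : G → ℂ) 1 * (χ : G → ℂ) h := by
    intro h
    have h3 : ∀ η : IrrCharacter G, ∑ g, conj ((χ : G → ℂ) g) * (η : G → ℂ) (g * h) =
        if η = χ then (Nat.card G : ℂ) / (χ : G → ℂ) 1 * (χ : G → ℂ) h else 0 := by
      intro η
      rw [H6.sum_mul_irr_mul η.2 (H6.isClassFunction_conj (H6.irr_isClassFunction χ.2))]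
      have h4 := H6.card_mul_classInner (η : G → ℂ) χ
      simp only [mul_comm (conj _)]
      rw [← h4, H6.irr_inner']
      split_ifs with he
      · rw [he, mul_one]
      · simp
    calc _ = ∑ g, ∑ η : IrrCharacter G, classInner (fun g => (ρ g).trace) η *
            (conj ((χ : G → ℂ) g) * (η : G → ℂ) (g * h)) := by
          refine Finset.sum_congr rfl fun g _ => ?_
          rw [hπ (g * h), Finset.mul_sum]
          exact Finset.sum_congr rfl fun η _ => by ring
      _ = _ := by
          rw [Finset.sum_comm]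
          simp only [← Finset.mul_sum, h3, mul_ite, mul_zero, Finset.sum_ite_eq', Finset.mem_univ,
            if_true]
          ring
  rw [h1]
  simp only [h2]
  have h5 := H6.card_mul_classInner (χ : G → ℂ) ψ
  calc _ = classInner (fun g => (ρ g).trace) χ * (Nat.card G : ℂ) / (χ : G → ℂ) 1 *
        ∑ h, (χ : G → ℂ) h * conj ((ψ : G → ℂ) h) := by
        rw [Finset.mul_sum]
        exact Finset.sum_congr rfl fun h _ => by ring
    _ = _ := by rw [← h5]; ring

variable (hρ : ∀ g, (ρ g)ᴴ = ρ g⁻¹)
include hρ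

theorem ee_conjTranspose (χ : IrrCharacter G) : (ee ρ χ)ᴴ = ee ρ χ := by
  rw [ee, av_apply, Matrix.conjTranspose_sum]
  refine Fintype.sum_equiv (Equiv.inv G) _ _ fun g => ?_
  rw [Matrix.conjTranspose_smul, hρ, Equiv.inv_apply, H6.char_inv (H6.irr_isCharacter χ.2)]
  rfl

open scoped ComplexOrder in
theorem ee_eq_zero {χ : IrrCharacter G} (h : classInner (fun g => (ρ g).trace) χ = 0) :
    ee ρ χ = 0 := by
  rw [← Matrix.trace_mul_conjTranspose_self_eq_zero_iff, ee_conjTranspose ρ hρ, trace_ee, h]
  simp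

theorem finrank_Zc : Module.finrank ℂ (Zc ρ) =
    Nat.card {χ : IrrCharacter G // classInner (fun g => (ρ g).trace) χ ≠ 0} := by
  classical
  let v : {χ : IrrCharacter G // classInner (fun g => (ρ g).trace) χ ≠ 0} → Matrix X X ℂ :=
    fun χ => ee ρ χ.1
  have hli : LinearIndependent ℂ v := by
    rw [Fintype.linearIndependent_iff]
    intro c hc ψ
    have h1 := congrArg (fun M => (M * ee ρ ψ.1).trace) hc
    simp only [v, Finset.sum_mul, smul_mul_assoc, Matrix.trace_sum, Matrix.trace_smul, trace_ee,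
      H6.irr_inner', zero_mul, Matrix.trace_zero, smul_eq_mul] at h1
    rw [Finset.sum_eq_single ψ (fun χ _ hχ => by rw [if_neg (fun e => hχ (Subtype.ext e))]; simp)
      (by simp), if_pos rfl, mul_one] at h1
    refine (mul_eq_zero.mp h1).resolve_right (div_ne_zero (mul_ne_zero ψ.2
      (pow_ne_zero _ H6.card_ne_zero)) (H6.irr_one_ne_zero ψ.1.2))
  have hspan : Submodule.span ℂ (Set.range v) = Zc ρ := by
    refine le_antisymm (Submodule.span_le.mpr ?_) fun z hz => ?_
    · rintro _ ⟨χ, rfl⟩
      exact av_mem ρ (H6.isClassFunction_conj (H6.irr_isClassFunction χ.1.2))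
    · obtain ⟨f, hf, rfl⟩ := exists_class ρ hz
      have h1 : f = ∑ χ : IrrCharacter G, conj (classInner (fun g => conj (f g)) χ) •
          fun g => conj ((χ : G → ℂ) g) := by
        funext g
        have := congrArg conj (H6.classFun_apply_eq_sum_irr (H6.isClassFunction_conj hf) g)
        simpa [Finset.sum_apply] using this
      rw [h1, map_sum]
      refine Submodule.sum_mem _ fun χ _ => ?_
      rw [map_smul]
      refine Submodule.smul_mem _ _ ?_
      by_cases h0 : classInner (fun g => (ρ g).trace) χ = 0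
      · have := ee_eq_zero ρ hρ h0
        rw [ee] at this
        rw [this]; exact Submodule.zero_mem _
      · exact Submodule.subset_span ⟨⟨χ, h0⟩, rfl⟩
  rw [← hspan, finrank_span_eq_card hli, Nat.card_eq_fintype_card]

omit hρ in
theorem constituent_iff {π : G → ℂ} (hπ : IsCharacter G π) (χ : IrrCharacter G) :
    (∃ φ : G → ℂ, IsCharacter G φ ∧ π = (χ : G → ℂ) + φ) ↔ classInner π χ ≠ 0 := by
  constructor
  · rintro ⟨φ, hφ, rfl⟩
    obtain ⟨n, hn⟩ := H6.char_inner_nat hφ (H6.irr_isCharacter χ.2)
    rw [H6.classInner_add_left, H6.irr_inner_self χ.2, hn]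
    exact_mod_cast (show (1 + n : ℕ) ≠ 0 by omega)
  · intro h
    exact ⟨_, H6.isCharacter_sub_of_inner_ne_zero hπ χ.2 h, by simp⟩

end H64.Hk
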