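import Mathlib

/-!
Semicontinuity of the rank of a matrix with polynomial entries, and the resulting deformation
argument for a complex `D * C = 0` that is exact at two specialisations.
-/

set_option autoImplicit false

namespace H64.Hk

open Polynomial Matrix

variable {K : Type*} [Field K] {m n : Type*} [Fintype m] [Fintype n] [DecidableEq m]
  [DecidableEq n]

theorem exists_mul_mul_eq_one (M : Matrix m n K) :
    ∃ (A : Matrix (Fin M.rank) m K) (B : Matrix n (Fin M.rank) K), A * M * B = 1 := by
  let f := M.mulVecLin
  let e : (Fin M.rank → K) ≃ₗ[K] LinearMap.range f := (Module.finBasis K _).equivFun.symm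
  obtain ⟨g, hg⟩ := LinearMap.exists_rightInverse_of_surjective f.rangeRestrict
    (LinearMap.range_rangeRestrict f)
  obtain ⟨h, hh⟩ := LinearMap.exists_leftInverse_of_injective (LinearMap.range f).subtype
    (Submodule.ker_subtype _)
  refine ⟨LinearMap.toMatrix' (e.symm.toLinearMap ∘ₗ h), LinearMap.toMatrix' (g ∘ₗ e.toLinearMap),
    ?_⟩
  apply Matrix.toLin'.injective
  rw [Matrix.toLin'_mul, Matrix.toLin'_mul, Matrix.toLin'_toMatrix', Matrix.toLin'_toMatrix',
    Matrix.toLin'_one]
  refine LinearMap.ext fun v => ?_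
  have h1 := LinearMap.congr_fun hg (e v)
  have h2 := LinearMap.congr_fun hh (e v)
  simp only [LinearMap.comp_apply, LinearMap.id_apply, LinearEquiv.coe_coe] at h1 h2 ⊢
  have h3 : Matrix.toLin' M (g (e v)) = (LinearMap.range f).subtype (e v) := by
    conv_rhs => rw [← h1]
    rfl
  rw [h3, h2, LinearEquiv.symm_apply_apply]

/-- Specialisation of a polynomial matrix. -/
noncomputable abbrev sp (M : Matrix m n K[X]) (t : K) : Matrix m n K := M.map (evalRingHom t)

theorem finite_rank_lt (M : Matrix m n K[X]) (t0 : K) :
    {t | (sp M t).rank < (sp M t0).rank}.Finite := by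
  obtain ⟨A, B, h⟩ := exists_mul_mul_eq_one (sp M t0)
  have key : ∀ t, eval t (A.map C * M * B.map C).det = (A * sp M t * B).det := by
    intro t
    rw [← coe_evalRingHom, RingHom.map_det, RingHom.mapMatrix_apply, Matrix.map_mul,
      Matrix.map_mul]
    congr 3 <;> ext <;> simp
  have hne : (A.map C * M * B.map C).det ≠ 0 := by
    intro h0
    have := key t0
    rw [h0, h, Matrix.det_one, eval_zero] at this
    exact zero_ne_one this
  refine (Polynomial.finite_setOf_isRoot hne).subset fun t ht => ?_
  by_contra hr
  have h1 : (A * sp M t * B).det ≠ 0 := by rw [← key]; exact hr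
  have h2 := Matrix.rank_of_det_ne_zero h1
  have h3 := (Matrix.rank_mul_le_left (A * sp M t) B).trans (Matrix.rank_mul_le_right A (sp M t))
  rw [h2, Fintype.card_fin] at h3
  exact absurd ht (not_lt.mpr h3)

theorem eq_zero_of_infinite [Infinite K] (M : Matrix m n K[X]) (S : Set K) (hS : S.Infinite)
    (h : ∀ t ∈ S, sp M t = 0) : M = 0 := by
  ext1 i j
  refine Polynomial.eq_zero_of_infinite_isRoot _ (hS.mono fun t ht => ?_)
  exact congrFun (congrFun (h t ht) i) j

theorem rank_eq [Infinite K] (D : Matrix m n K[X]) (C : Matrix n n K[X]) (h : D * C = 0) (a b : K)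
    (ha : Fintype.card n ≤ (sp D a).rank + (sp C a).rank)
    (hb : Fintype.card n ≤ (sp D b).rank + (sp C b).rank) : (sp D a).rank = (sp D b).rank := by
  have hle : ∀ t, (sp D t).rank + (sp C t).rank ≤ Fintype.card n := fun t =>
    Matrix.rank_add_rank_le_card_of_mul_eq_zero (by
      rw [← Matrix.map_mul, h]; ext; simp)
  obtain ⟨t, ht⟩ := (((finite_rank_lt D a).union (finite_rank_lt D b)).union
    ((finite_rank_lt C a).union (finite_rank_lt C b))).infinite_compl.nonempty
  simp only [Set.mem_compl_iff, Set.mem_union, Set.mem_setOf_eq, not_or, not_lt] at ht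
  have := hle t
  have := hle a
  have := hle b
  omega

end H64.Hk
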