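import Mathlib
import Cfsg.Agent.Lib.HeckeGen.Rank
import Cfsg.Agent.Lib.Char.Inner

/-!
The generic Hecke algebra of a finite group with a length function, through the matrices of left
and right multiplication by the generators; Tits' deformation argument for the dimension of the
centre.
-/

set_option autoImplicit false

namespace H64.Hk

open Polynomial Matrix

/-- A group generated by involutions with a length function. -/
structure WD (W : Type*) [Group W] (l : Type*) where
  s : l → W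
  ln : W → ℕ
  s_mul : ∀ i, s i * s i = 1
  ln_one : ln 1 = 0
  ln_inv : ∀ w, ln w⁻¹ = ln w
  ln_s : ∀ i w, ln (s i * w) = ln w + 1 ∨ ln (s i * w) + 1 = ln w
  desc : ∀ w, w ≠ 1 → ∃ i, ln (s i * w) < ln w

namespace WD

variable {W : Type*} [Group W] {l : Type*} (D : WD W l)

theorem s_inv (i : l) : (D.s i)⁻¹ = D.s i := inv_eq_of_mul_eq_one_right (D.s_mul i)

theorem s_s (i : l) (w : W) : D.s i * (D.s i * w) = w := by rw [← mul_assoc, D.s_mul, one_mul]

theorem s_s' (i : l) (w : W) : w * D.s i * D.s i = w := by rw [mul_assoc, D.s_mul, mul_one]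

theorem ln_mul_s (i : l) (w : W) : D.ln (w * D.s i) = D.ln (D.s i * w⁻¹) := by
  rw [← D.ln_inv, _root_.mul_inv_rev, s_inv]

theorem ln_s' (i : l) (w : W) : D.ln (w * D.s i) = D.ln w + 1 ∨ D.ln (w * D.s i) + 1 = D.ln w := by
  rw [ln_mul_s, ← D.ln_inv w]; exact D.ln_s i _

theorem ln_s_one (i : l) : D.ln (D.s i) = 1 := by
  have := D.ln_s i 1
  rw [mul_one, D.ln_one] at this
  omega

theorem s_ne_one (i : l) : D.s i ≠ 1 := fun h => by
  have := D.ln_s_one i
  rw [h, D.ln_one] at this
  omega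

theorem exists_word (w : W) : ∃ L : List l, (L.map D.s).prod = w ∧ L.length = D.ln w := by
  induction hn : D.ln w using Nat.strong_induction_on generalizing w with
  | _ n ih =>
    by_cases h : w = 1
    · subst h; exact ⟨[], rfl, by rw [← hn, D.ln_one]; rfl⟩
    · obtain ⟨i, hi⟩ := D.desc w h
      obtain ⟨L, h1, h2⟩ := ih _ (hn ▸ hi) (D.s i * w) rfl
      refine ⟨i :: L, by rw [List.map_cons, List.prod_cons, h1, s_s], ?_⟩
      have := D.ln_s i w
      rw [List.length_cons]; omega

theorem ln_prod_le (L : List l) : D.ln (L.map D.s).prod ≤ L.length := by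
  induction L with
  | nil => simp [D.ln_one]
  | cons i L ih =>
    have := D.ln_s i (L.map D.s).prod
    rw [List.map_cons, List.prod_cons, List.length_cons]; omega

/-- A chosen reduced word. -/
noncomputable def word (w : W) : List l := (D.exists_word w).choose

theorem word_prod (w : W) : ((D.word w).map D.s).prod = w := (D.exists_word w).choose_spec.1

theorem word_length (w : W) : (D.word w).length = D.ln w := (D.exists_word w).choose_spec.2

theorem reverse_prod (L : List l) : (L.reverse.map D.s).prod = (L.map D.s).prod⁻¹ := by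
  induction L with
  | nil => simp
  | cons i L ih => simp [D.s_inv, ← ih]

variable [Fintype W] [DecidableEq W]

section mats

variable {K : Type*} [CommRing K]

/-- Left multiplication by `T_s`. -/
def Lm (u : K) (i : l) : Matrix W W K := Matrix.of fun v w =>
  if D.ln w < D.ln (D.s i * w) then (if v = D.s i * w then 1 else 0)
  else u * (if v = D.s i * w then 1 else 0) + (u - 1) * (if v = w then 1 else 0)

/-- Right multiplication by `T_s`. -/
def Rm (u : K) (i : l) : Matrix W W K := Matrix.of fun v w =>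
  if D.ln w < D.ln (w * D.s i) then (if v = w * D.s i then 1 else 0)
  else u * (if v = w * D.s i then 1 else 0) + (u - 1) * (if v = w then 1 else 0)

/-- The maximal length. -/
def N : ℕ := Finset.univ.sup D.ln

omit [DecidableEq W] in
theorem ln_le_N (w : W) : D.ln w ≤ D.N := Finset.le_sup (f := D.ln) (Finset.mem_univ w)

/-- The Casimir map. -/
noncomputable def Cm (u : K) : Matrix W W K :=
  ∑ w, u ^ (D.N - D.ln w) • (((D.word w).map (D.Lm u)).prod * ((D.word w).map (D.Rm u)).prod)

/-- The commutator map. -/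
def Dm (u : K) : Matrix (l × W) W K := Matrix.of fun p w => (D.Lm u p.1 - D.Rm u p.1) p.2 w

variable {K' : Type*} [CommRing K'] (f : K →+* K')

omit [Fintype W] in
theorem Lm_map (u : K) (i : l) : (D.Lm u i).map f = D.Lm (f u) i := by
  ext v w
  simp only [Lm, Matrix.map_apply, Matrix.of_apply]
  split_ifs <;> simp

omit [Fintype W] in
theorem Rm_map (u : K) (i : l) : (D.Rm u i).map f = D.Rm (f u) i := by
  ext v w
  simp only [Rm, Matrix.map_apply, Matrix.of_apply]
  split_ifs <;> simp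

omit [Fintype W] in
theorem Dm_map (u : K) : (D.Dm u).map f = D.Dm (f u) := by
  ext p w
  simp only [Dm, Matrix.map_apply, Matrix.of_apply, Matrix.sub_apply, map_sub, ← D.Lm_map f,
    ← D.Rm_map f]

theorem Cm_map (u : K) : (D.Cm u).map f = D.Cm (f u) := by
  rw [← RingHom.mapMatrix_apply, Cm, Cm, map_sum]
  refine Finset.sum_congr rfl fun w _ => ?_
  have h1 : ∀ (c : K) (M : Matrix W W K), f.mapMatrix (c • M) = f c • f.mapMatrix M := by
    intro c M; ext; simp
  rw [h1, map_pow, map_mul, map_list_prod, map_list_prod, List.map_map, List.map_map]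
  congr 4 <;> funext i
  · exact D.Lm_map f u i
  · exact D.Rm_map f u i

theorem Dm_mulVec (u : K) (a : W → K) :
    D.Dm u *ᵥ a = 0 ↔ ∀ i, D.Lm u i *ᵥ a = D.Rm u i *ᵥ a := by
  simp only [← sub_eq_zero (a := D.Lm u _ *ᵥ a), ← Matrix.sub_mulVec]
  exact ⟨fun h i => funext fun v => congrFun h (i, v), fun h => funext fun p => congrFun (h p.1) p.2⟩

end mats

/-- A realisation of the Hecke algebra with parameter `u`. -/
structure Real (u : ℂ) {A : Type*} [Ring A] [Algebra ℂ A] (T : W → A) : Prop where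
  li : LinearIndependent ℂ T
  one : T 1 = 1
  Lup : ∀ i w, D.ln w < D.ln (D.s i * w) → T (D.s i) * T w = T (D.s i * w)
  Rup : ∀ i w, D.ln w < D.ln (w * D.s i) → T w * T (D.s i) = T (w * D.s i)
  sq : ∀ i, T (D.s i) * T (D.s i) = u • (1 : A) + (u - 1) • T (D.s i)

/-- The element with coordinates `a`. -/
noncomputable abbrev Φ {A : Type*} [Ring A] [Algebra ℂ A] (T : W → A) : (W → ℂ) →ₗ[ℂ] A :=
  Fintype.linearCombination ℂ T

namespace Real

variable {D} {u : ℂ} {A : Type*} [Ring A] [Algebra ℂ A] {T : W → A} (h : D.Real u T)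
include h

omit [Fintype W] [DecidableEq W] in
theorem Ldown (i : l) (w : W) (hw : ¬ D.ln w < D.ln (D.s i * w)) :
    T (D.s i) * T w = u • T (D.s i * w) + (u - 1) • T w := by
  have h1 := h.Lup i (D.s i * w) (by have := D.ln_s i w; rw [D.s_s]; omega)
  rw [D.s_s] at h1
  rw [← h1, ← mul_assoc, h.sq, add_mul, smul_mul_assoc, smul_mul_assoc, one_mul]

omit [Fintype W] [DecidableEq W] in
theorem Rdown (i : l) (w : W) (hw : ¬ D.ln w < D.ln (w * D.s i)) :
    T w * T (D.s i) = u • T (w * D.s i) + (u - 1) • T w := by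
  have h1 := h.Rup i (w * D.s i) (by have := D.ln_s' i w; rw [D.s_s']; omega)
  rw [D.s_s'] at h1
  rw [← h1, mul_assoc, h.sq, mul_add, mul_smul_comm, mul_smul_comm, mul_one]

omit [DecidableEq W] in
theorem Φ_inj : Function.Injective (Φ T) := h.li.fintypeLinearCombination_injective

omit h in
theorem Φ_mulVec (M : Matrix W W ℂ) (a : W → ℂ) :
    Φ T (M *ᵥ a) = ∑ w, a w • ∑ v, M v w • T v := by
  simp only [Fintype.linearCombination_apply, Matrix.mulVec, dotProduct, Finset.sum_smul,
    Finset.smul_sum, smul_smul]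
  rw [Finset.sum_comm]
  simp only [mul_comm]

theorem Φ_L (i : l) (a : W → ℂ) : Φ T (D.Lm u i *ᵥ a) = T (D.s i) * Φ T a := by
  rw [Φ_mulVec, Fintype.linearCombination_apply, Finset.mul_sum]
  refine Finset.sum_congr rfl fun w _ => ?_
  rw [mul_smul_comm]
  congr 1
  by_cases hw : D.ln w < D.ln (D.s i * w)
  · simp [Lm, hw, h.Lup i w hw]
  · simp [Lm, hw, h.Ldown i w hw, add_smul, Finset.sum_add_distrib]

theorem Φ_R (i : l) (a : W → ℂ) : Φ T (D.Rm u i *ᵥ a) = Φ T a * T (D.s i) := by
  rw [Φ_mulVec, Fintype.linearCombination_apply, Finset.sum_mul]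
  refine Finset.sum_congr rfl fun w _ => ?_
  rw [smul_mul_assoc]
  congr 1
  by_cases hw : D.ln w < D.ln (w * D.s i)
  · simp [Rm, hw, h.Rup i w hw]
  · simp [Rm, hw, h.Rdown i w hw, add_smul, Finset.sum_add_distrib]

theorem Φ_Lw (L : List l) (a : W → ℂ) :
    Φ T ((L.map (D.Lm u)).prod *ᵥ a) = (L.map fun i => T (D.s i)).prod * Φ T a := by
  induction L with
  | nil => simp
  | cons i L ih =>
    rw [List.map_cons, List.prod_cons, ← Matrix.mulVec_mulVec, h.Φ_L, ih, List.map_cons,
      List.prod_cons, mul_assoc]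

theorem Φ_Rw (L : List l) (a : W → ℂ) :
    Φ T ((L.map (D.Rm u)).prod *ᵥ a) = Φ T a * (L.reverse.map fun i => T (D.s i)).prod := by
  induction L with
  | nil => simp
  | cons i L ih =>
    rw [List.map_cons, List.prod_cons, ← Matrix.mulVec_mulVec, h.Φ_R, ih]
    simp [mul_assoc]

omit [Fintype W] [DecidableEq W] in
theorem T_word (L : List l) (hL : D.ln (L.map D.s).prod = L.length) :
    (L.map fun i => T (D.s i)).prod = T (L.map D.s).prod := by
  induction L with
  | nil => simp [h.one]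
  | cons i L ih =>
    have h1 := D.ln_s i (L.map D.s).prod
    have h2 := D.ln_prod_le L
    rw [List.map_cons, List.prod_cons, List.length_cons] at hL
    rw [List.map_cons, List.prod_cons, ih (by omega), h.Lup _ _ (by omega), List.map_cons,
      List.prod_cons]

theorem Φ_C (a : W → ℂ) :
    Φ T (D.Cm u *ᵥ a) = ∑ w, u ^ (D.N - D.ln w) • (T w * Φ T a * T w⁻¹) := by
  rw [Cm, Matrix.sum_mulVec, map_sum]
  refine Finset.sum_congr rfl fun w _ => ?_
  rw [Matrix.smul_mulVec, map_smul, ← Matrix.mulVec_mulVec, h.Φ_Lw, h.Φ_Rw,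
    h.T_word _ (by rw [D.word_prod, D.word_length]),
    h.T_word _ (by rw [D.reverse_prod, D.word_prod, D.ln_inv, List.length_reverse, D.word_length]),
    D.reverse_prod, D.word_prod, mul_assoc]

omit [DecidableEq W] in
theorem casimir (i : l) (x : A) :
    T (D.s i) * ∑ w, u ^ (D.N - D.ln w) • (T w * x * T w⁻¹) =
      (∑ w, u ^ (D.N - D.ln w) • (T w * x * T w⁻¹)) * T (D.s i) := by
  rw [← sub_eq_zero, Finset.mul_sum, Finset.sum_mul, ← Finset.sum_sub_distrib]
  have key : ∀ w, D.ln w < D.ln (D.s i * w) →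
      (T (D.s i) * u ^ (D.N - D.ln w) • (T w * x * T w⁻¹) -
        u ^ (D.N - D.ln w) • (T w * x * T w⁻¹) * T (D.s i)) +
      (T (D.s i) * u ^ (D.N - D.ln (D.s i * w)) • (T (D.s i * w) * x * T (D.s i * w)⁻¹) -
        u ^ (D.N - D.ln (D.s i * w)) • (T (D.s i * w) * x * T (D.s i * w)⁻¹) * T (D.s i)) = 0 := by
    intro w hw
    have h1 := D.ln_s i w
    have h2 := D.ln_le_N (D.s i * w)
    have e : D.N - D.ln w = D.N - D.ln (D.s i * w) + 1 := by omega
    have a1 := h.Lup i w hw
    have a2 := h.Ldown i (D.s i * w) (by rw [D.s_s]; omega)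
    have a3 := h.Rup i w⁻¹ (by rw [D.ln_mul_s, inv_inv, D.ln_inv]; exact hw)
    have a4 := h.Rdown i (w⁻¹ * D.s i) (by rw [D.s_s', D.ln_mul_s, inv_inv, D.ln_inv]; omega)
    rw [D.s_s] at a2
    rw [D.s_s'] at a4
    rw [e, _root_.mul_inv_rev, D.s_inv]
    simp only [mul_smul_comm, smul_mul_assoc, mul_assoc]
    rw [a3, a4, ← mul_assoc (T (D.s i)), ← mul_assoc (T (D.s i)), a1, a2]
    simp only [add_mul, mul_add, mul_smul_comm, smul_mul_assoc]
    rw [pow_succ]
    module
  refine Finset.sum_involution (fun w _ => D.s i * w) (fun w _ => ?_) (fun w _ _ he => ?_)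
    (fun w _ => Finset.mem_univ _) (fun w _ => D.s_s i w)
  · by_cases hw : D.ln w < D.ln (D.s i * w)
    · exact key w hw
    · have := key (D.s i * w) (by have := D.ln_s i w; rw [D.s_s]; omega)
      rw [D.s_s, add_comm] at this
      exact this
  · exact D.s_ne_one i (by simpa using he)

theorem mem_ker_iff (a : W → ℂ) :
    D.Dm u *ᵥ a = 0 ↔ ∀ i, T (D.s i) * Φ T a = Φ T a * T (D.s i) := by
  rw [D.Dm_mulVec]
  refine forall_congr' fun i => ?_
  rw [← h.Φ_L, ← h.Φ_R, h.Φ_inj.eq_iff]

theorem D_mul_C [Fintype l] : D.Dm u * D.Cm u = 0 := by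
  apply Matrix.toLin'.injective
  refine LinearMap.ext fun a => ?_
  rw [Matrix.toLin'_apply, ← Matrix.mulVec_mulVec, map_zero, LinearMap.zero_apply,
    h.mem_ker_iff, h.Φ_C]
  exact fun i => h.casimir i _

omit [Fintype W] [DecidableEq W] in
theorem commute_T {x : A} (hx : ∀ i, T (D.s i) * x = x * T (D.s i)) (w : W) :
    T w * x = x * T w := by
  rw [← D.word_prod w, ← h.T_word _ (by rw [D.word_prod, D.word_length])]
  refine (Commute.list_prod_left _ _ fun y hy => ?_).eq
  obtain ⟨i, -, rfl⟩ := List.mem_map.mp hy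
  exact hx i

theorem Φ_C_of_ker {a : W → ℂ} (ha : D.Dm u *ᵥ a = 0) :
    Φ T (D.Cm u *ᵥ a) = Φ T a * ∑ w, u ^ (D.N - D.ln w) • (T w * T w⁻¹) := by
  rw [h.Φ_C, Finset.mul_sum]
  refine Finset.sum_congr rfl fun w _ => ?_
  rw [h.commute_T ((h.mem_ker_iff a).1 ha), mul_smul_comm, mul_assoc]

end Real

theorem card_le_rank [Fintype l] (u : ℂ)
    (hu : ∀ a, D.Dm u *ᵥ a = 0 → D.Cm u *ᵥ a = 0 → a = 0) :
    Fintype.card W ≤ (D.Dm u).rank + (D.Cm u).rank := by
  have h1 := LinearMap.finrank_range_add_finrank_ker (D.Dm u).mulVecLin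
  have h2 : Module.finrank ℂ (LinearMap.ker (D.Dm u).mulVecLin) ≤ (D.Cm u).rank := by
    let φ : LinearMap.ker (D.Dm u).mulVecLin →ₗ[ℂ] LinearMap.range (D.Cm u).mulVecLin :=
      (D.Cm u).mulVecLin.rangeRestrict ∘ₗ (LinearMap.ker (D.Dm u).mulVecLin).subtype
    refine LinearMap.finrank_le_finrank_of_injective (f := φ) ?_
    rw [injective_iff_map_eq_zero]
    intro a ha
    exact Subtype.ext (hu a a.2 (congrArg Subtype.val ha))
  rw [Module.finrank_fintype_fun_eq_card] at h1
  have h3 : (D.Dm u).rank = Module.finrank ℂ (LinearMap.range (D.Dm u).mulVecLin) := rfl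
  omega

/-- The deformation argument. -/
theorem finrank_ker_eq [Fintype l] [DecidableEq l] (S : Set ℂ) (hS : S.Infinite)
    (h : ∀ u ∈ S, D.Dm u * D.Cm u = 0) (a b : ℂ)
    (ha : ∀ x, D.Dm a *ᵥ x = 0 → D.Cm a *ᵥ x = 0 → x = 0)
    (hb : ∀ x, D.Dm b *ᵥ x = 0 → D.Cm b *ᵥ x = 0 → x = 0) :
    Module.finrank ℂ (LinearMap.ker (D.Dm a).mulVecLin) =
      Module.finrank ℂ (LinearMap.ker (D.Dm b).mulVecLin) := by
  have e1 : ∀ t : ℂ, sp (D.Dm (X : ℂ[X])) t = D.Dm t := fun t => by
    rw [sp, D.Dm_map]; simp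
  have e2 : ∀ t : ℂ, sp (D.Cm (X : ℂ[X])) t = D.Cm t := fun t => by
    rw [sp, D.Cm_map]; simp
  have h0 : D.Dm (X : ℂ[X]) * D.Cm (X : ℂ[X]) = 0 := eq_zero_of_infinite _ S hS fun t ht => by
    rw [← h t ht, ← e1, ← e2]
    exact Matrix.map_mul
  have := rank_eq _ _ h0 a b (by rw [e1, e2]; exact D.card_le_rank a ha)
    (by rw [e1, e2]; exact D.card_le_rank b hb)
  rw [e1, e1] at this
  have h1 := LinearMap.finrank_range_add_finrank_ker (D.Dm a).mulVecLin
  have h2 := LinearMap.finrank_range_add_finrank_ker (D.Dm b).mulVecLin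
  have h3 : (D.Dm a).rank = Module.finrank ℂ (LinearMap.range (D.Dm a).mulVecLin) := rfl
  have h4 : (D.Dm b).rank = Module.finrank ℂ (LinearMap.range (D.Dm b).mulVecLin) := rfl
  omega

/-! ### the specialisation `u = 1` -/

omit [Fintype W] [DecidableEq W] in
theorem real_one : D.Real 1 (fun w => MonoidAlgebra.of ℂ W w) where
  li := by
    have e : (fun w => MonoidAlgebra.of ℂ W w) = MonoidAlgebra.basis W ℂ := by
      funext w
      simp [MonoidAlgebra.basis_apply]
    rw [e]
    exact (MonoidAlgebra.basis W ℂ).linearIndependent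
  one := map_one _
  Lup i w _ := (map_mul _ _ _).symm
  Rup i w _ := (map_mul _ _ _).symm
  sq i := by rw [← map_mul, D.s_mul, map_one]; simp

theorem inj_one (x : W → ℂ) (h1 : D.Dm 1 *ᵥ x = 0) (h2 : D.Cm 1 *ᵥ x = 0) : x = 0 := by
  have h3 := D.real_one.Φ_C_of_ker h1
  simp only [h2, map_zero, one_pow, one_smul, ← map_mul, mul_inv_cancel, map_one,
    Finset.sum_const, Finset.card_univ, mul_smul_comm, mul_one] at h3
  apply D.real_one.Φ_inj
  rw [map_zero]
  rw [← Nat.cast_smul_eq_nsmul ℂ] at h3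
  exact (smul_eq_zero.mp h3.symm).resolve_left (Nat.cast_ne_zero.mpr Fintype.card_ne_zero)

theorem ker_one : LinearMap.ker (D.Dm (1 : ℂ)).mulVecLin = H6.classFunSubmodule W := by
  ext a
  rw [LinearMap.mem_ker, Matrix.mulVecLin_apply, D.Dm_mulVec, H6.mem_classFunSubmodule]
  have hL : ∀ i v, (D.Lm (1 : ℂ) i *ᵥ a) v = a (D.s i * v) := by
    intro i v
    simp only [Matrix.mulVec, dotProduct, Lm, Matrix.of_apply, one_mul, sub_self, zero_mul,
      add_zero, ite_self, ite_mul]
    rw [Finset.sum_eq_single (D.s i * v)]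
    · simp [D.s_s]
    · intro w _ hw
      rw [if_neg]
      rintro rfl
      exact hw (D.s_s i w).symm
    · simp
  have hR : ∀ i v, (D.Rm (1 : ℂ) i *ᵥ a) v = a (v * D.s i) := by
    intro i v
    simp only [Matrix.mulVec, dotProduct, Rm, Matrix.of_apply, one_mul, sub_self, zero_mul,
      add_zero, ite_self, ite_mul]
    rw [Finset.sum_eq_single (v * D.s i)]
    · simp [D.s_s']
    · intro w _ hw
      rw [if_neg]
      rintro rfl
      exact hw (D.s_s' i w).symm
    · simp
  constructor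
  · intro h g k
    obtain ⟨L, rfl, -⟩ := D.exists_word k
    induction L with
    | nil => simp
    | cons i L ih =>
      have := congrFun (h i) ((L.map D.s).prod * g * (L.map D.s).prod⁻¹ * D.s i)
      rw [hL, hR, D.s_s'] at this
      rw [← ih, ← this, List.map_cons, List.prod_cons, _root_.mul_inv_rev, D.s_inv]
      simp only [mul_assoc]
  · intro h i
    funext v
    rw [hL, hR, ← h (D.s i * v) (D.s i), D.s_s, D.s_inv]

theorem finrank_ker_one :
    Module.finrank ℂ (LinearMap.ker (D.Dm (1 : ℂ)).mulVecLin) = Nat.card (ConjClasses W) := by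
  rw [ker_one, H6.finrank_classFunSubmodule]

end WD

end H64.Hk
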