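import Mathlib
import Cfsg.Agent.Lib.HeckeGen.Gen
import Cfsg.Agent.Lib.HeckeGen.Centre

/-!
Sets with a Weyl distance realise the Hecke algebra; with a strongly transitive group the centre
of the Hecke algebra is the centre of the commutant of the permutation representation.
-/

set_option autoImplicit false

namespace H64.Hk

open Matrix Cfsg

variable {W : Type*} [Group W] {l : Type*}

/-- A set with a Weyl distance, all panels having `q + 1` chambers. -/
structure XD (D : WD W l) (X : Type*) (q : ℕ) where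
  δ : X → X → W
  eq_one : ∀ x y, δ x y = 1 ↔ x = y
  symm : ∀ x y, δ y x = (δ x y)⁻¹
  step : ∀ i x z y, δ x z = D.s i → δ z y = D.s i → δ x y = 1 ∨ δ x y = D.s i
  up : ∀ i x z y, δ x z = D.s i → D.ln (δ z y) < D.ln (D.s i * δ z y) → δ x y = D.s i * δ z y
  ex : ∀ i w x y, δ x y = D.s i * w → ∃ z, δ x z = D.s i ∧ δ z y = w
  card : ∀ i x, Nat.card {z // δ x z = D.s i} = q
  surj : ∀ w, ∃ x y, δ x y = w

namespace XD

variable {D : WD W l} {X : Type*} {q : ℕ} (B : XD D X q) [DecidableEq W]

/-- The adjacency matrices. -/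
def T (w : W) : Matrix X X ℂ := Matrix.of fun x y => if B.δ x y = w then 1 else 0

theorem T_apply (w : W) (x y : X) : B.T w x y = if B.δ x y = w then 1 else 0 := rfl

theorem T_conjTranspose (w : W) : (B.T w)ᴴ = B.T w⁻¹ := by
  ext x y
  rw [Matrix.conjTranspose_apply, T_apply, T_apply, B.symm x y]
  simp only [inv_eq_iff_eq_inv]
  split_ifs <;> simp

variable [Fintype X] [DecidableEq X]

omit [DecidableEq X] in
theorem T_mul (v w : W) (x y : X) : (B.T v * B.T w) x y =
    ((Finset.univ.filter fun z => B.δ x z = v ∧ B.δ z y = w).card : ℂ) := by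
  rw [Matrix.mul_apply, Finset.card_filter]
  push_cast
  refine Finset.sum_congr rfl fun z _ => ?_
  rw [T_apply, T_apply]
  by_cases h1 : B.δ x z = v <;> by_cases h2 : B.δ z y = w <;> simp [h1, h2]

omit [DecidableEq X] in
theorem Lup (i : l) (w : W) (hw : D.ln w < D.ln (D.s i * w)) :
    B.T (D.s i) * B.T w = B.T (D.s i * w) := by
  ext x y
  rw [T_mul, T_apply]
  split_ifs with h
  · obtain ⟨z, h1, h2⟩ := B.ex i w x y h
    rw [Nat.cast_eq_one, Finset.card_eq_one]
    refine ⟨z, Finset.eq_singleton_iff_unique_mem.mpr ⟨by simp [h1, h2], fun z' hz' => ?_⟩⟩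
    simp only [Finset.mem_filter, Finset.mem_univ, true_and] at hz'
    rcases B.step i z' x z (by rw [B.symm, hz'.1, D.s_inv]) h1 with h3 | h3
    · exact (B.eq_one _ _).1 h3
    · have := B.up i z' z y h3 (by rw [h2]; exact hw)
      rw [hz'.2, h2] at this
      rw [← this] at hw
      exact absurd hw (lt_irrefl _)
  · rw [Nat.cast_eq_zero, Finset.card_eq_zero, Finset.filter_eq_empty_iff]
    rintro z - ⟨h1, h2⟩
    exact h (by rw [B.up i x z y h1 (by rw [h2]; exact hw), h2])

omit [DecidableEq X] in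
theorem card' (i : l) (x : X) : (Finset.univ.filter fun z => B.δ x z = D.s i).card = q := by
  rw [← Fintype.card_subtype, ← Nat.card_eq_fintype_card, B.card]

theorem sq (i : l) : B.T (D.s i) * B.T (D.s i) =
    (q : ℂ) • (1 : Matrix X X ℂ) + ((q : ℂ) - 1) • B.T (D.s i) := by
  ext x y
  rw [T_mul, Matrix.add_apply, Matrix.smul_apply, Matrix.smul_apply, T_apply, Matrix.one_apply]
  by_cases hxy : x = y
  · subst hxy
    rw [if_pos rfl, if_neg (by rw [(B.eq_one x x).2 rfl]; exact (D.s_ne_one i).symm)]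
    simp only [smul_eq_mul, mul_one, mul_zero, add_zero, Nat.cast_inj]
    refine Eq.trans ?_ (B.card' i x)
    congr 1
    ext z
    simp only [Finset.mem_filter, Finset.mem_univ, true_and, and_iff_left_iff_imp]
    intro h; rw [B.symm, h, D.s_inv]
  · rw [if_neg hxy]
    split_ifs with h
    · have h1 : (Finset.univ.filter fun z => B.δ x z = D.s i ∧ B.δ z y = D.s i) =
          (Finset.univ.filter fun z => B.δ x z = D.s i).erase y := by
        ext z
        simp only [Finset.mem_filter, Finset.mem_univ, true_and, Finset.mem_erase]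
        constructor
        · rintro ⟨h1, h2⟩
          refine ⟨?_, h1⟩
          rintro rfl
          exact D.s_ne_one i (by rw [← h2, B.eq_one])
        · rintro ⟨h1, h2⟩
          exact ⟨h2, (B.step i z x y (by rw [B.symm, h2, D.s_inv]) h).resolve_left
            (by rw [B.eq_one]; exact h1)⟩
      have h2 := Finset.card_erase_add_one (s := Finset.univ.filter fun z => B.δ x z = D.s i)
        (a := y) (by simp [h])
      rw [B.card', ← h1] at h2
      have h3 := congrArg (Nat.cast (R := ℂ)) h2
      push_cast at h3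
      simp only [smul_eq_mul, mul_zero, mul_one, zero_add]
      linear_combination h3
    · simp only [smul_eq_mul, mul_zero, add_zero]
      rw [Nat.cast_eq_zero, Finset.card_eq_zero, Finset.filter_eq_empty_iff]
      rintro z - ⟨h1, h2⟩
      rcases B.step i x z y h1 h2 with h3 | h3
      · exact hxy ((B.eq_one _ _).1 h3)
      · exact h h3

omit [Fintype X] [DecidableEq X] in
theorem Φ_apply [Fintype W] (a : W → ℂ) (x y : X) :
    (∑ w, a w • B.T w) x y = a (B.δ x y) := by
  simp [Matrix.sum_apply, T_apply]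

theorem real [Fintype W] : D.Real (q : ℂ) B.T where
  li := by
    rw [Fintype.linearIndependent_iff]
    intro a ha w
    obtain ⟨x, y, rfl⟩ := B.surj w
    rw [← B.Φ_apply a, ha]; rfl
  one := by
    ext x y
    simp only [T_apply, Matrix.one_apply, B.eq_one]
  Lup := B.Lup
  Rup i w hw := by
    have := congrArg Matrix.conjTranspose (B.Lup i w⁻¹ (by rwa [D.ln_inv, ← D.ln_mul_s]))
    rwa [Matrix.conjTranspose_mul, T_conjTranspose, T_conjTranspose, T_conjTranspose, inv_inv,
      _root_.mul_inv_rev, inv_inv, D.s_inv] at this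
  sq := B.sq

open scoped ComplexOrder in
include B in
theorem inj [Fintype W] (hq : q ≠ 0) (a : W → ℂ) (h1 : D.Dm (q : ℂ) *ᵥ a = 0)
    (h2 : D.Cm (q : ℂ) *ᵥ a = 0) : a = 0 := by
  have h3 := B.real.Φ_C_of_ker h1
  rw [h2, map_zero] at h3
  set z := WD.Φ B.T a with hz
  have h4 : ∑ w, (q : ℂ) ^ (D.N - D.ln w) * ((z * B.T w) * (z * B.T w)ᴴ).trace = 0 := by
    have := congrArg (fun M => (M * zᴴ).trace) h3
    simp only [zero_mul, Matrix.trace_zero, Finset.mul_sum, Finset.sum_mul, Matrix.trace_sum,
      mul_smul_comm, smul_mul_assoc, Matrix.trace_smul, smul_eq_mul] at this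
    rw [this]
    simp only [Matrix.conjTranspose_mul, T_conjTranspose, mul_assoc]
  rw [Finset.sum_eq_zero_iff_of_nonneg (fun w _ => mul_nonneg (pow_nonneg (Nat.cast_nonneg _) _)
    (Matrix.posSemidef_self_mul_conjTranspose _).trace_nonneg)] at h4
  have h5 := (mul_eq_zero.mp (h4 1 (Finset.mem_univ _))).resolve_left
    (pow_ne_zero _ (Nat.cast_ne_zero.mpr hq))
  rw [Matrix.trace_mul_conjTranspose_self_eq_zero_iff, B.real.one, mul_one] at h5
  apply B.real.Φ_inj
  rw [map_zero, ← hz, h5]

end XD

section perm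

variable (G X : Type*) [Group G] [MulAction G X] [Fintype X] [DecidableEq X]

/-- Permutation matrices. -/
def pm : G →* Matrix X X ℂ where
  toFun g := Matrix.of fun x y => if x = g • y then 1 else 0
  map_one' := by ext x y; simp [Matrix.one_apply]
  map_mul' g h := by
    ext x y
    simp [Matrix.mul_apply, mul_smul]

variable {G X}

theorem pm_apply (g : G) (x y : X) : pm G X g x y = if x = g • y then 1 else 0 := rfl

theorem pm_conjTranspose (g : G) : (pm G X g)ᴴ = pm G X g⁻¹ := by
  ext x y
  rw [Matrix.conjTranspose_apply, pm_apply, pm_apply]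
  simp only [eq_inv_smul_iff, eq_comm (a := y)]
  split_ifs <;> simp

theorem pm_trace (g : G) : (pm G X g).trace = Nat.card (MulAction.fixedBy X g) := by
  rw [Nat.card_eq_fintype_card, Fintype.card_subtype, Finset.card_filter, Matrix.trace]
  push_cast
  refine Finset.sum_congr rfl fun x _ => ?_
  simp [pm_apply, eq_comm]

theorem pm_comm_iff (g : G) (m : Matrix X X ℂ) :
    pm G X g * m = m * pm G X g ↔ ∀ x y, m (g • x) (g • y) = m x y := by
  have h1 : ∀ x y, (pm G X g * m) x y = m (g⁻¹ • x) y := by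
    intro x y
    simp [Matrix.mul_apply, pm_apply, ← inv_smul_eq_iff]
  have h2 : ∀ x y, (m * pm G X g) x y = m x (g • y) := by
    intro x y
    simp [Matrix.mul_apply, pm_apply]
  constructor
  · intro h x y
    rw [← h2, ← h, h1, inv_smul_smul]
  · intro h
    ext x y
    rw [h1, h2, ← h, smul_inv_smul]

end perm

theorem XD.finrank_ker {D : WD W l} {X : Type*} {q : ℕ} (B : XD D X q) [DecidableEq W] [Fintype W]
    [Fintype X] [DecidableEq X] (G : Type*) [Group G] [Fintype G] [MulAction G X]
    (hinv : ∀ (g : G) x y, B.δ (g • x) (g • y) = B.δ x y)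
    (htr : ∀ x y x' y', B.δ x y = B.δ x' y' → ∃ g : G, g • x = x' ∧ g • y = y') :
    Module.finrank ℂ (LinearMap.ker (D.Dm (q : ℂ)).mulVecLin) =
      Nat.card {χ : IrrCharacter G // ∃ φ : G → ℂ, IsCharacter G φ ∧
        (fun g => (Nat.card (MulAction.fixedBy X g) : ℂ)) = (χ : G → ℂ) + φ} := by
  have hT : ∀ a (g : G), pm G X g * WD.Φ B.T a = WD.Φ B.T a * pm G X g := by
    intro a g
    rw [pm_comm_iff]
    intro x y
    rw [Fintype.linearCombination_apply, B.Φ_apply, B.Φ_apply, hinv]
  have hC : ∀ m : Matrix X X ℂ, (∀ g, pm G X g * m = m * pm G X g) → ∃ a, m = WD.Φ B.T a := by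
    intro m hm
    choose x y hxy using B.surj
    refine ⟨fun w => m (x w) (y w), ?_⟩
    ext x' y'
    rw [Fintype.linearCombination_apply, B.Φ_apply]
    obtain ⟨g, h1, h2⟩ := htr _ _ x' y' (hxy (B.δ x' y'))
    rw [← (pm_comm_iff g m).1 (hm g) (x _), h1, h2]
  have h1 : (LinearMap.ker (D.Dm (q : ℂ)).mulVecLin).map (WD.Φ B.T) = Zc (pm G X) := by
    ext z
    rw [Submodule.mem_map, mem_Zc]
    constructor
    · rintro ⟨a, ha, rfl⟩
      refine ⟨hT a, fun m hm => ?_⟩
      obtain ⟨b, rfl⟩ := hC m hm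
      have h2 := B.real.commute_T ((B.real.mem_ker_iff a).1 ha)
      conv_lhs => rw [Fintype.linearCombination_apply (f := b), Finset.sum_mul]
      conv_rhs => rw [Fintype.linearCombination_apply (f := b), Finset.mul_sum]
      simp only [smul_mul_assoc, mul_smul_comm, h2]
    · rintro ⟨h1, h2⟩
      obtain ⟨a, rfl⟩ := hC z h1
      refine ⟨a, (B.real.mem_ker_iff a).2 fun i => h2 _ fun g => ?_, rfl⟩
      rw [pm_comm_iff]
      intro x y
      rw [B.T_apply, B.T_apply, hinv]
  rw [(Submodule.equivMapOfInjective _ B.real.Φ_inj _).finrank_eq, h1,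
    finrank_Zc _ pm_conjTranspose]
  simp only [pm_trace]
  exact Nat.card_congr (Equiv.subtypeEquivRight fun χ =>
    (constituent_iff (H6.isCharacter_fixedBy X) χ).symm)

end H64.Hk
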