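import Mathlib
import Cfsg.Agent.Lib.HeckeGen.Bld
import Cfsg.Agent.Lib.Chev.Main

/-!
The principal series of a Chevalley group: the number of constituents of the permutation
character on the cosets of `B` is the class number of the Weyl group.
-/

set_option autoImplicit false

namespace H64.Hk

open Matrix Cfsg H38

variable {ι l : Type} [Fintype l] [DecidableEq l] [Finite ι]

/-- The Weyl group with its length function. -/
noncomputable def wd (R : RS ι l) : WD R.W l where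
  s i := ⟨R.s i, R.s_mem_W i⟩
  ln w := R.ln w
  s_mul i := Subtype.ext (R.s_mul_self i)
  ln_one := R.ln_one
  ln_inv w := R.ln_inv w.2
  ln_s i w := by
    by_cases h : R.Pos ((w : Equiv.Perm ι)⁻¹ (R.sim i))
    · exact Or.inl (R.ln_s_mul_of_pos w.2 h)
    · exact Or.inr (R.ln_s_mul_of_not_pos w.2 h)
  desc w hw := by
    obtain ⟨i, -, hi⟩ := R.exists_not_pos (J := Set.univ) (R.W.inv_mem w.2)
      (fun e => hw (Subtype.ext (inv_eq_one.mp e)))
    have := R.ln_s_mul_of_not_pos w.2 hi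
    exact ⟨i, by change R.ln (R.s i * w) < R.ln w; omega⟩

variable {R : RS ι l} {K : Type*} [Field K] {G : Type*} [Group G] {E : Elts R K G}

theorem exists_bw (ht : E.Gp = ⊤) (g : G) :
    ∃ w : R.W, ∃ b ∈ E.B, ∃ n, E.Rep n w ∧ ∃ b' ∈ E.B, g = b * n * b' := by
  obtain ⟨b, hb, n, w, hn, u, hu, h⟩ := E.bruhat (g := g) (ht ▸ Subgroup.mem_top g)
  exact ⟨⟨w, hn.mem_W⟩, b, hb, n, hn, u, E.U_le_B (E.XS_mono (fun _ hr => hr.1) hu), h⟩

/-- The Bruhat cell of an element. -/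
noncomputable def bw (ht : E.Gp = ⊤) (g : G) : R.W := (exists_bw ht g).choose

theorem bw_spec (ht : E.Gp = ⊤) (g : G) :
    ∃ b ∈ E.B, ∃ n, E.Rep n (bw ht g) ∧ ∃ b' ∈ E.B, g = b * n * b' := (exists_bw ht g).choose_spec

variable (hF : E.Faith) (ht : E.Gp = ⊤)
include hF

theorem bw_eq {w : R.W} {n b b' : G} (hn : E.Rep n w) (hb : b ∈ E.B) (hb' : b' ∈ E.B) :
    bw ht (b * n * b') = w := by
  obtain ⟨c, hc, m, hm, c', hc', h⟩ := bw_spec ht (b * n * b')
  exact Subtype.ext (hF.bruhat_unique_w' hm hn hc hc' hb hb' h.symm)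

theorem bw_mul {b b' : G} (hb : b ∈ E.B) (hb' : b' ∈ E.B) (g : G) :
    bw ht (b * g * b') = bw ht g := by
  obtain ⟨c, hc, m, hm, c', hc', h⟩ := bw_spec ht g
  have : b * g * b' = (b * c) * m * (c' * b') := by rw [h]; group
  rw [this, bw_eq hF ht hm (E.B.mul_mem hb hc) (E.B.mul_mem hc' hb')]

omit hF in
/-- The Weyl distance on the cosets of `B`. -/
noncomputable def dl (x y : G ⧸ E.B) : R.W := bw ht (x.out⁻¹ * y.out)

theorem dl_mk (g h : G) : dl ht (g : G ⧸ E.B) (h : G ⧸ E.B) = bw ht (g⁻¹ * h) := by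
  obtain ⟨a, ha⟩ := QuotientGroup.mk_out_eq_mul E.B g
  obtain ⟨b, hb⟩ := QuotientGroup.mk_out_eq_mul E.B h
  rw [dl, ha, hb, ← bw_mul hF ht (E.B.inv_mem a.2) b.2 (g⁻¹ * h)]
  congr 1
  group

theorem dl_eq {g h : G} {w : R.W} {n b b' : G} (hn : E.Rep n w) (hb : b ∈ E.B) (hb' : b' ∈ E.B)
    (e : g⁻¹ * h = b * n * b') : dl ht (g : G ⧸ E.B) (h : G ⧸ E.B) = w := by
  rw [dl_mk hF, e, bw_eq hF ht hn hb hb']

theorem dl_spec (g h : G) : ∃ b ∈ E.B, ∃ n, E.Rep n (dl ht (g : G ⧸ E.B) (h : G ⧸ E.B)) ∧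
    ∃ b' ∈ E.B, g⁻¹ * h = b * n * b' := by
  rw [dl_mk hF]; exact bw_spec ht _

theorem dl_smul (g : G) (x y : G ⧸ E.B) : dl ht (g • x) (g • y) = dl ht x y := by
  obtain ⟨x, rfl⟩ := QuotientGroup.mk_surjective x
  obtain ⟨y, rfl⟩ := QuotientGroup.mk_surjective y
  rw [MulAction.Quotient.smul_mk, MulAction.Quotient.smul_mk, dl_mk hF, dl_mk hF]
  congr 1
  simp only [smul_eq_mul]
  group

theorem dl_trans (x y x' y' : G ⧸ E.B) (h : dl ht x y = dl ht x' y') :
    ∃ g : G, g • x = x' ∧ g • y = y' := by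
  obtain ⟨x, rfl⟩ := QuotientGroup.mk_surjective x
  obtain ⟨y, rfl⟩ := QuotientGroup.mk_surjective y
  obtain ⟨x', rfl⟩ := QuotientGroup.mk_surjective x'
  obtain ⟨y', rfl⟩ := QuotientGroup.mk_surjective y'
  obtain ⟨b, hb, n, hn, c, hc, e⟩ := dl_spec hF ht x y
  obtain ⟨b', hb', n', hn', c', hc', e'⟩ := dl_spec hF ht x' y'
  rw [← h] at hn'
  refine ⟨x' * b' * b⁻¹ * x⁻¹, ?_, ?_⟩
  · rw [MulAction.Quotient.smul_mk, QuotientGroup.eq]
    have : ((x' * b' * b⁻¹ * x⁻¹) • x)⁻¹ * x' = b * b'⁻¹ := by simp only [smul_eq_mul]; group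
    rw [this]
    exact E.B.mul_mem hb (E.B.inv_mem hb')
  · rw [MulAction.Quotient.smul_mk, QuotientGroup.eq]
    have : ((x' * b' * b⁻¹ * x⁻¹) • y)⁻¹ * y' = c⁻¹ * (n⁻¹ * n') * c' := by
      have e1 : y = x * (b * n * c) := by rw [← e]; group
      have e2 : y' = x' * (b' * n' * c') := by rw [← e']; group
      simp only [smul_eq_mul]
      rw [e1, e2]; group
    rw [this]
    exact E.B.mul_mem (E.B.mul_mem (E.B.inv_mem hc) (E.H_le_B (Elts.Rep.inv_mul_mem_H E hn hn'))) hc'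

/-- The building of a group with root elements. -/
noncomputable def xd : XD (wd R) (G ⧸ E.B) (Nat.card K) where
  δ := dl ht
  eq_one x y := by
    obtain ⟨x, rfl⟩ := QuotientGroup.mk_surjective x
    obtain ⟨y, rfl⟩ := QuotientGroup.mk_surjective y
    rw [QuotientGroup.eq]
    constructor
    · intro h
      obtain ⟨b, hb, n, hn, c, hc, e⟩ := dl_spec hF ht x y
      rw [h] at hn
      exact e ▸ E.B.mul_mem (E.B.mul_mem hb (E.H_le_B (Elts.Rep.mem_H E hn))) hc
    · intro h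
      exact dl_eq hF ht (n := 1) E.rep_one h E.B.one_mem (by group)
  symm x y := by
    obtain ⟨x, rfl⟩ := QuotientGroup.mk_surjective x
    obtain ⟨y, rfl⟩ := QuotientGroup.mk_surjective y
    obtain ⟨b, hb, n, hn, c, hc, e⟩ := dl_spec hF ht x y
    refine dl_eq hF ht (n := n⁻¹) hn.inv (E.B.inv_mem hc) (E.B.inv_mem hb) ?_
    rw [← _root_.inv_inj, _root_.mul_inv_rev, inv_inv, e]; group
  step i x z y h1 h2 := by
    obtain ⟨x, rfl⟩ := QuotientGroup.mk_surjective x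
    obtain ⟨y, rfl⟩ := QuotientGroup.mk_surjective y
    obtain ⟨z, rfl⟩ := QuotientGroup.mk_surjective z
    obtain ⟨b, hb, m, hm, c, hc, e⟩ := dl_spec hF ht x z
    obtain ⟨b', hb', n, hn, c', hc', e'⟩ := dl_spec hF ht z y
    rw [h1] at hm
    rw [h2] at hn
    have e1 : x⁻¹ * y = b * (m * (c * b') * n) * c' := by
      rw [show x⁻¹ * y = x⁻¹ * z * (z⁻¹ * y) by group, e, e']; group
    rcases E.step_B hm hn.mem_N (E.B.mul_mem hc hb') with ⟨b1, h1, b2, h2, h3⟩ | ⟨b1, h1, b2, h2, h3⟩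
    · left
      rw [← (wd R).s_mul i]
      exact dl_eq hF ht (n := m * n) (hm.mul hn) (E.B.mul_mem hb h1) (E.B.mul_mem h2 hc')
        (by rw [e1, h3]; group)
    · right
      exact dl_eq hF ht hn (E.B.mul_mem hb h1) (E.B.mul_mem h2 hc') (by rw [e1, h3]; group)
  up i x z y h1 h2 := by
    obtain ⟨x, rfl⟩ := QuotientGroup.mk_surjective x
    obtain ⟨y, rfl⟩ := QuotientGroup.mk_surjective y
    obtain ⟨z, rfl⟩ := QuotientGroup.mk_surjective z
    obtain ⟨b, hb, m, hm, c, hc, e⟩ := dl_spec hF ht x z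
    obtain ⟨b', hb', n, hn, c', hc', e'⟩ := dl_spec hF ht z y
    rw [h1] at hm
    have e1 : x⁻¹ * y = b * (m * (c * b') * n) * c' := by
      rw [show x⁻¹ * y = x⁻¹ * z * (z⁻¹ * y) by group, e, e']; group
    have hp : R.Pos ((dl ht (z : G ⧸ E.B) (y : G ⧸ E.B) : Equiv.Perm ι)⁻¹ (R.sim i)) := by
      by_contra hp
      have := R.ln_s_mul_of_not_pos hn.mem_W hp
      change R.ln _ < R.ln (R.s i * _) at h2
      omega
    obtain ⟨b1, h1, b2, h2, h3⟩ := Elts.step_up (R.stable_pos Set.univ) (Set.mem_univ i) hm hn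
      hn.mem_W hp (E.B.mul_mem hc hb')
    exact dl_eq hF ht (n := m * n) (hm.mul hn) (E.B.mul_mem hb h1) (E.B.mul_mem h2 hc')
      (by rw [e1, h3]; group)
  ex i w x y h := by
    obtain ⟨x, rfl⟩ := QuotientGroup.mk_surjective x
    obtain ⟨y, rfl⟩ := QuotientGroup.mk_surjective y
    obtain ⟨b, hb, n, hn, c, hc, e⟩ := dl_spec hF ht x y
    rw [h] at hn
    have hm := E.rep_n_sim i (c := 1) one_ne_zero
    refine ⟨(x * b * E.n (R.sim i) 1 : G), dl_eq hF ht hm hb E.B.one_mem (by group),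
      dl_eq hF ht (n := (E.n (R.sim i) 1)⁻¹ * n) ?_ E.B.one_mem hc ?_⟩
    · have := hm.inv.mul hn
      change E.Rep _ ((R.s i)⁻¹ * (R.s i * w)) at this
      rwa [inv_mul_cancel_left] at this
    · have e1 : y = x * (b * n * c) := by rw [← e]; group
      rw [e1]; group
  card i x := by
    obtain ⟨x, rfl⟩ := QuotientGroup.mk_surjective x
    have hm := E.rep_n_sim i (c := 1) one_ne_zero
    symm
    refine Nat.card_eq_of_bijective (fun t => ⟨(x * E.x (R.sim i) t * E.n (R.sim i) 1 : G),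
      dl_eq hF ht hm (E.U_le_B (E.x_mem_U (R.pos_sim i) t)) E.B.one_mem (by group)⟩) ⟨?_, ?_⟩
    · intro t t' h
      have h1 := QuotientGroup.eq.mp (congrArg Subtype.val h)
      obtain ⟨c, hc, h2⟩ := hm.inv.conj_x (R.sim i)
      have h3 : (x * E.x (R.sim i) t * E.n (R.sim i) 1)⁻¹ *
          (x * E.x (R.sim i) t' * E.n (R.sim i) 1) =
          (E.n (R.sim i) 1)⁻¹ * E.x (R.sim i) (-t + t') * (E.n (R.sim i) 1)⁻¹⁻¹ := by
        rw [← E.x_add, E.x_neg]; group
      rw [h3, h2, R.s_inv, R.s_sim] at h1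
      by_contra hne
      exact (R.not_pos_neg_iff _).mpr (R.pos_sim i) (hF.pos_of_x_mem_B
        (mul_ne_zero hc (fun e => hne (neg_add_eq_zero.mp e))) h1)
    · rintro ⟨z, hz⟩
      obtain ⟨z, rfl⟩ := QuotientGroup.mk_surjective z
      obtain ⟨b, hb, n, hn, c, hc, e⟩ := dl_spec hF ht x z
      rw [hz] at hn
      have hn' : E.Rep n⁻¹ (R.s i) := R.s_inv i ▸ hn.inv
      obtain ⟨b1, h1, t, h2⟩ := Elts.step_pos (R.stable_pos Set.univ) (Set.mem_univ i) hn'
        (E.B.inv_mem hb)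
      refine ⟨-t, Subtype.ext (QuotientGroup.eq.mpr ?_)⟩
      have e1 : z = x * (b * n * c) := by rw [← e]; group
      have e2 : b = (E.x (R.sim i) t)⁻¹ * n * b1⁻¹ * n⁻¹ := by
        rw [← _root_.inv_inj, ← mul_right_inj n⁻¹, h2]; group
      have : (x * E.x (R.sim i) (-t) * E.n (R.sim i) 1)⁻¹ * z =
          ((E.n (R.sim i) 1)⁻¹ * n) * b1⁻¹ * c := by
        rw [e1, e2, E.x_neg]; group
      rw [this]
      exact E.B.mul_mem (E.B.mul_mem (E.H_le_B (Elts.Rep.inv_mul_mem_H E hm hn)) (E.B.inv_mem h1)) hc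
  surj w := by
    obtain ⟨n, hn⟩ := E.exists_rep_of_mem_W w.2
    exact ⟨(1 : G), (n : G), dl_eq hF ht hn E.B.one_mem E.B.one_mem (by group)⟩

omit hF

open Cfsg.Lie in
theorem principal_series {D : ChevalleyDatum}
    (hD : D ∈ [chevG2, chevB2, chevD4, chevF4, chevE6, chevE7, chevE8]) (R : RootSys D)
    (F : Type*) [Field F] [Fintype F] :
    Nat.card {χ : IrrCharacter (D.group F) // ∃ φ : D.group F → ℂ, IsCharacter (D.group F) φ ∧
        fixedPointCharacter ((D.borelSubgroup F).subgroupOf (D.group F)) =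
          (χ : D.group F → ℂ) + φ} = Nat.card (ConjClasses R.toRS.W) := by
  classical
  have : Fintype R.toRS.W := Fintype.ofFinite _
  obtain ⟨E, hE⟩ := (matFacts hD F).exists_isMat R
  have : Fintype (D.group F) := Fintype.ofFinite _
  have : Fintype (D.group F ⧸ hE.grp.B) := Fintype.ofFinite _
  rw [← hE.grp_B, ← (wd R.toRS).finrank_ker_one]
  refine ((xd hE.grp_faith hE.grp_top).finrank_ker (D.group F) (dl_smul hE.grp_faith hE.grp_top)
    (dl_trans hE.grp_faith hE.grp_top)).symm.trans ?_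
  refine (wd R.toRS).finrank_ker_eq (Set.range fun k : ℕ => ((2 ^ (k + 1) : ℕ) : ℂ))
    (Set.infinite_range_of_injective fun a b h => ?_) ?_ _ _
    ((xd hE.grp_faith hE.grp_top).inj Nat.card_pos.ne') (wd R.toRS).inj_one
  · have := Nat.pow_right_injective (le_refl 2) (Nat.cast_injective h)
    omega
  · rintro _ ⟨k, rfl⟩
    obtain ⟨E', hE'⟩ := (matFacts hD (GaloisField 2 (k + 1))).exists_isMat R
    have : Fintype (D.group (GaloisField 2 (k + 1)) ⧸ hE'.grp.B) := Fintype.ofFinite _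
    have h := (xd hE'.grp_faith hE'.grp_top).real.D_mul_C
    rwa [GaloisField.card 2 (k + 1) (by omega)] at h

end H64.Hk
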